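import Cfsg.Agent.Lib.Mult.E62.Y
import Cfsg.Agent.Lib.PcX.Fus

/-! A stem extension of `²E₆(2)` with kernel of type `(2, 2)`. -/

set_option autoImplicit false
set_option maxRecDepth 100000

namespace Cfsg.Agent.Mult.E62

open Cfsg.Agent.CG Cfsg.Agent.PcX Cfsg.Lie Cfsg.Agent.Chev Cfsg.Agent.Chev.RSys Cfsg.Agent.Chev.PreRGD Subgroup
open scoped commutatorElement

theorem cen_spec : ∀ c < 39, (c < 37 → 0 < c → RT.wd 37 c = 37) ∧ (c < 38 → 0 < c → RT.wd 38 c = 38) ∧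
    RT.wd c c = 0 ∧ ∀ k < 6, (sf k c = true → 0 < c) ∧ (37 ≤ c → qt k c = c) ∧ (4 ≤ k → 0 < c → sf k c = true) := by
  decide +kernel

theorem cX : (RT.wc 0 fun cf => band (eqC cf [25, 30, 25, 30] []) (band
    (eqC cf [25, 30, 1, 16, 19] [37, 1, 16, 19, 25, 30]) (eqC cf [25, 30, 2, 15, 16, 19] [38, 2, 15, 16, 19, 25, 30]))) =
    true := by
  decide +kernel

section cover
variable {P : Type*} [Group P] {y : ℕ → P} (h0 : y 0 = 1) (hR : Rel RT (0 < ·) y) (hT : C (0 < ·) y 39 0 = ⊤)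
include h0 hR

theorem y_sq {c : ℕ} (h1 : 0 < c) (h2 : c < 39) : y c ^ 2 = 1 := by
  rw [sq, hR.sq h1 h2, (cen_spec c h2).2.2.1, evN_zero]

include hT in
theorem C_le_center : C (0 < ·) y 39 37 ≤ center P := by
  have h1 : ∀ c j, 0 < c → c < j → j < 39 → RT.wd j c = j → y c * y j = y j * y c := fun c j a b d e => by
    rw [hR.comm (a.trans b) a b d, e, evN_single fmtT.hb h0 (d.trans (by decide))]
  refine C_le fun j _ a b => ?_
  rw [mem_center_iff]
  intro g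
  refine (C_le (A := centralizer {y j}) (fun c a' _ b' => mem_centralizer_singleton_iff.mpr ?_)
    (hT ▸ mem_top g)) _ rfl |>.symm
  rcases lt_trichotomy c j with e | rfl | e
  · refine h1 c j a' e b ?_
    obtain rfl | rfl : j = 37 ∨ j = 38 := by omega
    exacts [(cen_spec c b').1 e a', (cen_spec c b').2.1 e a']
  · rfl
  · obtain ⟨rfl, rfl⟩ : j = 37 ∧ c = 38 := by omega
    exact (h1 37 38 (by decide) e b' ((cen_spec 37 b).2.1 e (by decide))).symm

omit h0 hR in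
variable (y) in
/-- The central subgroup. -/
def ιT (a : ZMod 2 × ZMod 2) : P := y 37 ^ a.1.val * y 38 ^ a.2.val

include hT in
theorem cen_ιT : Cen (ιT y) := by
  have h1 : ∀ c, 37 ≤ c → c < 39 → ∀ k, y c ^ k ∈ center P := fun c a b k =>
    pow_mem (C_le_center h0 hR hT (mem_C (by omega) a b)) k
  refine ⟨fun a b => ?_, fun a g => (mem_center_iff.mp (mul_mem (h1 37 le_rfl (by decide) _)
    (h1 38 (by decide) (by decide) _)) g).symm⟩
  simp only [ιT, Prod.fst_add, Prod.snd_add, ZMod.val_add]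
  rw [← pow_eq_pow_mod _ (y_sq h0 hR (c := 37) (by decide) (by decide)),
    ← pow_eq_pow_mod _ (y_sq h0 hR (c := 38) (by decide) (by decide)), pow_add, pow_add, mul_assoc, mul_assoc,
    ← mul_assoc (y 38 ^ _), mem_center_iff.mp (h1 37 le_rfl (by decide) _) (y 38 ^ _), mul_assoc]

omit h0 hR in
theorem ιT_10 : ιT y (1, 0) = y 37 := by simp [ιT, ZMod.val_one]

omit h0 hR in
theorem ιT_01 : ιT y (0, 1) = y 38 := by simp [ιT, ZMod.val_one]

include hT in
theorem ιT_inj (hs : Strict (0 < ·) y 39 39) : Function.Injective (ιT y) := fun a b e => by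
  have hι := cen_ιT h0 hR hT
  have h1 : ιT y (a - b) = 1 := mul_right_cancel (b := ιT y b) (by rw [← hι.add, sub_add_cancel, e, one_mul])
  have h2 := hs 37 (by decide) (by decide)
  have h3 := hs 38 (by decide) (by decide)
  have h4 : ∀ c : ZMod 2 × ZMod 2, c = 0 ∨ c = (1, 0) ∨ c = (0, 1) ∨ c = (1, 0) + (0, 1) := by decide
  rcases h4 (a - b) with e | e | e | e
  · exact sub_eq_zero.mp e
  · rw [e, ιT_10] at h1; exact absurd (h1 ▸ one_mem _) h2
  · rw [e, ιT_01] at h1; exact absurd (h1 ▸ one_mem _) h3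
  · rw [e, hι.add, ιT_10, ιT_01, mul_eq_one_iff_eq_inv] at h1
    exact absurd (h1 ▸ inv_mem (mem_C (by decide) le_rfl (by decide))) h2

end cover

variable {K : Type*} [Field K] {ω : K} {G : Type*} [Group G] {x : ℕ → K → G} {φ : K →+* K} {σ : G →* G}
  (h : IsTw chevE6 twE6 x φ σ) (hφ : ∀ t, φ t = t ^ 2) (hω : F4 K ω) {Γ : Type*} [Group Γ] {f : Γ →* G}
  (E : h.fold.Emb f)

include hφ hω in
theorem fusG {k c : ℕ} (hk : k < 6) (hc : c < 39) (hs : sf k c = true) {g : Γ} (hg : Act ω x k (f g)) :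
    (∀ a ∈ Nat.digits (2 ^ 6) (qt k c), a < 39) ∧ evN (yG ω h E) 6 (qt k c) = g * yG ω h E c * g⁻¹ := by
  obtain ⟨h1, h2⟩ := fusT h.chv.rel hω hk hc hs
  refine ⟨h1, E.inj ?_⟩
  rw [map_evN_of f fun a ha => f_yG h hφ hω E (h1 a ha), ← h2 _ hg, map_mul, map_mul, map_inv, f_yG h hφ hω E hc]

include E in
theorem mem_UJ {m u : Γ} {w : Equiv.Perm (Fin chevE6.nroots)} (hm : h.chv.rel.pre.Over (f m) w) {i : Fin chevE6.rank}
    (hi : ¬ (rs chevE6).IsPos (w ((rs chevE6).simple i))) (hu : f u ∈ h.chv.rel.pre.U)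
    (e : f (m * u * m⁻¹) ∈ h.chv.rel.pre.U) : f u ∈ h.chv.rel.pre.UJ (h.fold.orb i) := by
  obtain ⟨k, hk, e1⟩ := hm.exists_eq
  have h1 := E.nd.mem_US_of_conj_mem_B hm.1 (h.chv.rel.pre.H_conj_US hk hu) (h.chv.rel.pre.U_le_B (by
    simpa [e1, mul_assoc] using e))
  have h2 := h.chv.rel.pre.H_conj_US (inv_mem hk) h1
  have h3 := USub_mono (T := {r | (rs chevE6).IsPos r ∧ ¬ (rs chevE6).InSub (h.fold.orb i) r})
    (fun r hr => And.intro hr.1 fun a => Fold.not_isPos_of_orb (E.mem_WF hm) hi hr.1 a hr.2) h2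
  rwa [show k⁻¹ * (k * f u * k⁻¹) * k⁻¹⁻¹ = f u by group] at h3

variable [Finite K] (hf : f.range ≤ h.fold.gen)
include hφ hω E hf

theorem inv_all {P : Type*} [Group P] {y : ℕ → P} (h0 : y 0 = 1) (hR : Rel RT (0 < ·) y) {p : P →* Γ}
    (hp : ∀ c, 0 < c → c < 39 → p (y c) = yG ω h E c) (hU : p.range = h.chv.rel.pre.U.comap f)
    (hc : p.ker ≤ center P) (g : Γ) : Inv p g := by
  have h1 : ∀ k < 6, ∀ g, Act ω x k (f g) → (∀ u ∈ p.range, g * u * g⁻¹ ∈ p.range →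
      u ∈ C (sf k · = true) (yG ω h E) 39 0) → Inv p g := fun k hk g hg hS => by
    obtain ⟨cf, a1, a2⟩ := Tb.wc_ok fmtT h0 hR ((allLt_iff _ _).mp cq k hk)
    obtain ⟨a3, a4⟩ := rel_of_chk fmtT a1 ((allLt_iff _ _).mp a2)
    have a5 : ∀ c, sf k c = true → 0 < c := fun c hc => Nat.pos_of_ne_zero (by
      rintro rfl; exact absurd (((cen_spec 0 (by decide)).2.2.2 k hk).1 hc) (by decide))
    have hp' : ∀ c < 39, p (y c) = yG ω h E c := fun c hc => by
      rcases Nat.eq_zero_or_pos c with rfl | e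
      exacts [by rw [h0, map_one]; rfl, hp c e hc]
    refine inv_of_rel hc fmtT a3 (hR.mono a5) a4 (fun c _ => hp' c) (fun c a b => ?_)
      ((strictG h hφ hω E).mono a5) (fun c _ a b => ?_) hS
    · obtain ⟨b1, b2⟩ := fusG h hφ hω E hk b a hg
      exact (map_evN_of p fun c hc => hp' c (b1 c hc)).trans b2
    · rw [((cen_spec c b).2.2.2 k hk).2.1 a]
      exact evN_single fmtT.hb h0 (b.trans (by decide))
  have h2 : ∀ g ∈ (E.sbn repE6).H, Inv p g := fun g hg => by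
    let W : Subgroup Γ :=
      { carrier := {g | g ∈ (E.sbn repE6).H ∧ Inv p g}
        one_mem' := ⟨one_mem _, inv_of_mem hc (one_mem _)⟩
        mul_mem' := fun {a b} ha hb => ⟨mul_mem ha.1 hb.1, ha.2.mul hb.2 fun u hu _ => by
          rw [hU] at hu ⊢; exact (E.sbn repE6).H_U b hb.1 u hu⟩
        inv_mem' := fun ha => ⟨inv_mem ha.1, ha.2.inv⟩ }
    have h3 := SBN.mem_H1 (S := E.sbn repE6) (E.sbn_full h.hrep_E6 hf ▸ mem_top g) hg
    rw [SBN.H1_eq] at h3
    refine (iSup_le (a := W) (fun a => ?_) h3).2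
    obtain ⟨k, k1, k2, k3⟩ := exists_h h hφ hω E a
    refine k2.trans (zpowers_le.mpr ⟨SBN.H1_le_H ((E.sbn repE6).H1_eq.ge (mem_iSup_of_mem a k1)), ?_⟩)
    split_ifs at k3 with ha
    · refine h1 _ (by omega) k k3 fun u hu _ => ?_
      rw [hU, ← U_eq h hφ hω E (n := 39) (by decide)] at hu
      exact C_le (fun c a b d => mem_C (((cen_spec c d).2.2.2 _ (by omega)).2.2 (by omega) a) b d) hu
    · exact k3 ▸ inv_of_mem hc (one_mem _)
  obtain ⟨w, hw, m, u, v, hm, hu, hv, rfl⟩ := E.bruhat g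
  have h3 : Inv p m := by
    clear hu hv
    revert m
    refine Fold.WF_induction (C := fun w => ∀ m, h.chv.rel.pre.Over (f m) w → Inv p m)
      (fun m hm => h2 m (over_one_iff.mp hm)) (fun w hw i hi ih m hm => ?_) hw
    obtain ⟨a, ha⟩ := h.hrep_E6 i
    obtain ⟨n, n1, n2⟩ := exists_n h hω E a
    have h4 := ih (m * n⁻¹) (by simpa [Fold.s_eq ha, mul_assoc] using hm.mul n1.inv)
    rw [← inv_mul_cancel_right m n]
    refine h4.mul (h1 a (by omega) n n2 fun u hu e => mem_C_of_UJ h hφ hω E a ?_) fun u hu e => ?_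
    · rw [hU] at hu e
      exact mem_UJ h E n1 (Fold.not_isPos_s _) hu e
    · rw [inv_mul_cancel_right, hU] at e
      rw [hU] at hu ⊢
      have h5 := mem_UJ h E hm (by rwa [Fold.isPos_mul_s hw, not_not]) hu e
      rw [Fold.orb_eq ha] at h5
      have h6 := (mem_normalizer_iff.mp (h.chv.rel.pre.NJ_le_normalizer_UJ _ (n1.mem_NJ (Fold.s_mem_WJ _))) _).mp h5
      exact mem_comap.mpr (by simpa using UJ_le_U _ _ h6)
  have h4 : u ∈ p.range := hU ▸ hu
  have h5 : v ∈ p.range := hU ▸ mem_comap.mpr (USub_mono (fun _ hr => hr.1) hv)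
  refine ((inv_of_mem hc h4).mul h3 fun a _ e => ?_).mul (inv_of_mem hc h5) fun a ha _ =>
    mul_mem (mul_mem h5 ha) (inv_mem h5)
  simpa [mul_assoc] using mul_mem (mul_mem (inv_mem h4) e) h4

theorem odd_index [Finite Γ] [CharP K 2] : Odd (h.chv.rel.pre.U.comap f).index := by
  have := SBN.coprime_index (S := E.sbn repE6) (p := 2) (E.sbn_full h.hrep_E6 hf) (h.isPGroup_U E 2 repE6)
    fun _ => h.eq_one_of_isPElt E 2 repE6
  rw [Nat.coprime_two_right] at this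
  exact this

theorem exG [Finite Γ] [CharP K 2] : EX Γ (Multiplicative (ZMod 2 × ZMod 2)) := by
  obtain ⟨P, _, y, h0, hR, hs, hT⟩ := exT
  obtain ⟨p, hp⟩ := hR.exists_hom fmtT (fmtT.cl 0) hs hT (relG h hφ hω E)
  have hU : p.range = h.chv.rel.pre.U.comap f := by
    rw [MonoidHom.range_eq_map, ← hT, map_C p hp]; exact U_eq h hφ hω E (by decide)
  have hk : p.ker ≤ C (0 < ·) y 39 37 := fun g hg =>
    hR.mem_of_ker fmtT (fmtT.cl 0) p hp (strictG h hφ hω E) (hT ▸ mem_top g) hg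
  have hι := cen_ιT h0 hR hT
  obtain ⟨cf, a1, a2⟩ := Tb.wc_ok fmtT h0 hR cX
  simp only [band_eq] at a2
  have a3 : ∀ c < 64, evN y RT.b c = y c := fun c hc => evN_single fmtT.hb h0 hc
  have a4 := a1.eqC a2.1
  have a5 := a1.eqC a2.2.1
  have a6 := a1.eqC a2.2.2
  simp only [ev_cons, ev_nil, mul_one] at a4 a5 a6
  simp (disch := decide) only [a3] at a4 a5 a6
  refine ex_of_inv p hι (ιT_inj h0 hR hT hs) (fun X => ⟨fun e => ?_, ?_⟩) (hU ▸ odd_index h hφ hω E hf) (by decide)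
    (inv_all h hφ hω E hf h0 hR hp hU (hk.trans (C_le_center h0 hR hT))) (X₀ := y 25 * y 30)
    (by rw [← map_mul, mul_assoc, a4, map_one]) fun A hA => ?_
  · refine (C_le (A := (MonoidHom.mk' (fun a : Multiplicative (ZMod 2 × ZMod 2) => ιT y a.toAdd)
      fun a b => hι.add _ _).range) (fun c _ a b => ?_) (hk e)).imp' Multiplicative.toAdd fun _ => id
    obtain rfl | rfl : c = 37 ∨ c = 38 := by omega
    exacts [⟨.ofAdd (1, 0), ιT_10⟩, ⟨.ofAdd (0, 1), ιT_01⟩]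
  · rintro ⟨a, rfl⟩
    rw [ιT, map_mul, map_pow, map_pow, hp 37 (by decide) (by decide), hp 38 (by decide) (by decide),
      yG_ge h E le_rfl, yG_ge h E (by decide)]
    simp
  · have b1 := hA (y 1 * y 16 * y 19) (1, 0) (by
      rw [ιT_10, commutatorElement_def, mul_assoc, ← mul_inv_rev, mul_inv_eq_iff_eq_mul]; simpa [mul_assoc] using a5)
    have b2 := hA (y 2 * y 15 * y 16 * y 19) (0, 1) (by
      rw [ιT_01, commutatorElement_def, mul_assoc, ← mul_inv_rev, mul_inv_eq_iff_eq_mul]; simpa [mul_assoc] using a6)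
    have h4 : ∀ c : ZMod 2 × ZMod 2, c = 0 ∨ c = (1, 0) ∨ c = (0, 1) ∨ c = (1, 0) + (0, 1) := by decide
    refine eq_top_iff.mpr fun c _ => ?_
    rcases h4 c with rfl | rfl | rfl | rfl
    exacts [zero_mem _, b1, b2, add_mem b1 b2]

end Cfsg.Agent.Mult.E62
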