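import Cfsg.Agent.Lib.Mult.E62.Up
import Cfsg.Agent.Lib.PcX.Glue

/-! The Schur multiplier of `²E₆(2)`. -/

set_option autoImplicit false

namespace Cfsg.Agent.Mult.E62

open Cfsg.Agent.PcX Cfsg.Lie Cfsg.Agent.Chev Cfsg.Agent.Chev.RSys Cfsg.Agent.Chev.PreRGD

section
variable {K : Type*} [Field K] [Finite K] {φ : K →+* K} {G : Type*} [Group G] {x : ℕ → K → G} {σ : G →* G}
  (h : IsTw chevE6 twE6 x φ σ) {Γ : Type*} [Group Γ] {f : Γ →* G} (E : h.fold.Emb f) (hf : f.range ≤ h.fold.gen)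
include E hf

theorem ker_eq_bot_odd [Finite Γ] [CharP K 2] (hinj : Function.Injective h.chv.rel.tor) {P : Type*} [Group P]
    {τ : P →* Γ} (hτ : IsStemExtension τ) {m : ℕ} (hm : Odd m) (h0 : ∀ z ∈ τ.ker, z ^ m = 1) : τ.ker = ⊥ := by
  refine h.ker_eq_bot per_E6 E h.hrep_E6 hf 2 ⟨⟨hτ.1, hτ.2.1⟩, fun z hz => ⟨m, Nat.coprime_two_right.mpr hm, h0 z hz⟩⟩
    hτ.2.2 fun t _ ht => funext fun a => ?_
  have h1 := congrFun (hinj (ht.trans (map_one _).symm)) (repE6 a)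
  rw [Finset.prod_apply, Finset.prod_eq_single a (fun b _ hb => h.dl_single_of_ne _ _ _ fun j hj => ?_) (by simp)] at h1
  · exact (h.dl_single_self (h.orbOK per_E6 ((rs chevE6).simple (repE6 a))) (t a)).symm.trans h1
  have h2 : ∀ a b, b ≠ a → repE6 b ≠ repE6 a ∧ twE6.ν (repE6 b) ≠ repE6 a ∧
    kr twE6 2 (chevE6.simple (repE6 b)) ≤ 2 := by decide +kernel
  obtain ⟨h3, h4, h5⟩ := h2 a b hb
  obtain rfl | rfl : j = 0 ∨ j = 1 := by omega
  exacts [h3, fun e => h4 (congrArg Fin.val e)]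

end

theorem exists_proj {K : Type*} [Field K] [Fintype K] {q : ℕ} (hK : Fintype.card K = q ^ 2) {φ : K →+* K}
    (hφ : ∀ t, φ t = t ^ q) (hφk : ∀ t, φ^[2] t = t) :
    ∃ π : (isTw_st twist_E6 (charOK_zero K) φ).fold.gen →* twistedE6 K q, Function.Surjective π ∧
      π.ker ≤ Subgroup.center _ ∧ Nonempty (π.ker ≃* Multiplicative (ZMod (Nat.gcd 3 (q + 1)))) := by
  let h := isTw_st twist_E6 (charOK_zero K) φ
  have E := (h.ok per_E6).emb_gen
  have h1 : h.fold.gen.map (stProj K chevE6) = (wordIncl chevE6 (e6Words K q)).range := by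
    rw [range_wordIncl, h.gen_E6 hφ hφk, MonoidHom.map_closure, Set.image_image]
    refine congrArg _ (Set.image_congr ?_)
    rintro _ (⟨t, -, r, hr, rfl⟩ | ⟨t, rs, hr, rfl⟩)
    · simp [stProj_stGen (D := chevE6) ⟨r, by revert r; decide⟩]
    · simp [stProj_stGen (D := chevE6) ⟨rs.1, by revert rs; decide⟩, stProj_stGen (D := chevE6) ⟨rs.2, by revert rs; decide⟩]
  let π : h.fold.gen →* twistedE6 K q := ((chevE6.group K).subtype.comp ((stProj K chevE6).comp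
    h.fold.gen.subtype)).codRestrict _ fun g => by
      obtain ⟨g', e⟩ := h1.le (Subgroup.mem_map_of_mem _ g.2)
      exact (congrArg (· ∈ twistedE6 K q) (congrArg Subtype.val e)).mp g'.2
  have h3 : ∀ g, g ∈ π.ker ↔ (g : chevE6.SteinbergGroup K) ∈ (stProj K chevE6).ker := fun g => by
    rw [MonoidHom.mem_ker, MonoidHom.mem_ker, Subtype.ext_iff, Subtype.ext_iff (a1 := stProj K chevE6 g)]; rfl
  let c := centerHom chevE6 K (Nat.gcd 3 (q + 1)) fun i => ([2, 3, 4, 6, 5, 4] : List ℤ).getD i 0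
  have h4 : ∀ w, h.chv.rel.tor (c w) ∈ h.fold.gen := fun w => by
    obtain ⟨g, e⟩ := h.tor_mem_range per_E6 E hφk (cot chevE6 [2, 0, 1] w)
    refine (congrArg (· ∈ h.fold.gen) (e.trans (congrArg _ (funext fun i => Units.ext ?_)))).mp g.2
    have h5 := zpow_eq_one_of_dvd w (Int.natCast_dvd_natCast.mpr (Nat.gcd_dvd_right 3 (q + 1)))
    rw [Nat.cast_add_one, zpow_add_one, mul_eq_one_iff_eq_inv] at h5
    rw [dl_two, Pi.mul_apply, Units.val_mul, h.σT_E6, hφ, ← Units.val_pow_eq_pow_val, ← Units.val_mul, Units.val_inj,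
      cot, cot, ← zpow_natCast, ← zpow_mul, mul_comm _ (q : ℤ), zpow_mul, h5, inv_zpow', ← zpow_add, Twist.νp_val]
    refine mul_inv_eq_one.mp ((zpow_sub _ _ _).symm.trans ?_)
    exact zpow_eq_one_of_dvd w ((Int.natCast_dvd_natCast.mpr (Nat.gcd_dvd_left 3 (q + 1))).trans (by
      revert i; decide +kernel))
  let ψ := (h.chv.rel.tor.comp c).codRestrict _ h4
  have h5 := center_E6.ker_eq (stRel_steinberg chevE6 K) (GS_stGen chevE6 K) (stProj K chevE6) stProj_stGen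
  have h6 : ψ.range = π.ker := by
    ext g
    rw [h3, h5]
    refine ⟨?_, fun ⟨w, e⟩ => ?_⟩
    · rintro ⟨w, rfl⟩
      exact ⟨⟨w, by simpa using zpow_eq_one_of_dvd w (Int.natCast_dvd_natCast.mpr (Nat.gcd_dvd_left 3 (q + 1)))⟩, rfl⟩
    · have h7 := E.fix g
      rw [Subgroup.subtype_apply, ← e, MonoidHom.comp_apply, IsTw.fold_σ, h.σ_tor] at h7
      have h8 := congrArg Units.val (congrFun (tor_injective_E6 h7) ⟨5, by decide⟩)
      rw [h.σT_E6, hφ, ← Units.val_pow_eq_pow_val, Units.val_inj] at h8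
      have h9 : ((w : Kˣ) ^ 2) ^ q = w ^ 4 := h8
      have h10 : (w : Kˣ) ^ 3 = 1 := w.2
      refine ⟨⟨w, pow_gcd_eq_one.mpr ⟨h10, ?_⟩⟩, Subtype.ext e⟩
      have h11 : (w : Kˣ) ^ (q + 1) = (((w : Kˣ) ^ 2) ^ q) ^ 2 * w ^ 4 * (((w : Kˣ) ^ 3) ^ (q + 1))⁻¹ := by group
      rw [h11, h9, show ((w : Kˣ) ^ 4) ^ 2 * w ^ 4 = ((w : Kˣ) ^ 3) ^ 4 by group, h10]
      simp
  have h7 : Function.Injective ψ := (injective_iff_map_eq_one _).mpr fun w hw => by
    have h8 := congrFun (tor_injective_E6 (a₁ := c w) (a₂ := 1) ((congrArg Subtype.val hw).trans (map_one _).symm))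
    have h9 : (w : Kˣ) ^ (4 : ℤ) = 1 := h8 ⟨5, by decide⟩
    have h10 : (w : Kˣ) ^ (3 : ℤ) = 1 := h8 ⟨1, by decide⟩
    rw [show (4 : ℤ) = 3 + 1 from rfl, zpow_add_one, h10, one_mul] at h9
    exact Subtype.ext h9
  have h8 : Nat.gcd (Nat.gcd 3 (q + 1)) (Fintype.card K - 1) = Nat.gcd 3 (q + 1) :=
    Nat.gcd_eq_left ((Nat.gcd_dvd_right _ _).trans (hK ▸ Nat.sq_sub_sq q 1 ▸ Dvd.intro _ rfl))
  refine ⟨π, fun g => ?_, fun g hg => ?_,
    ⟨h8 ▸ ((kerPowEquiv K _).trans ((MonoidHom.ofInjective h7).trans (MulEquiv.subgroupCongr h6))).symm⟩⟩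
  · obtain ⟨g', hg', e⟩ := h1.ge ⟨g, rfl⟩
    exact ⟨⟨g', hg'⟩, Subtype.ext (congrArg Subtype.val e :)⟩
  · exact Subgroup.mem_center_iff.mpr fun g' => Subtype.ext (Subgroup.mem_center_iff.mp ((chv_xG chevE6 K).ker_le_center _
      stProj_stGen (stRel_steinberg chevE6 K) (GS_stGen chevE6 K) ((h3 g).mp hg)) g')

theorem hasMult {K : Type*} [Field K] [Fintype K] (hK : Fintype.card K = 4) :
    HasSchurMultiplier (twistedE6 K 2) (Multiplicative (ZMod 3 × ZMod 2 × ZMod 2)) := by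
  have hK' : Fintype.card K = 2 ^ 2 := hK
  obtain ⟨p, hp, _, h2, φ, hφ, hφk⟩ := exists_frob Nat.prime_two.isPrimePow hK'
  obtain rfl : p = 2 := (Nat.prime_dvd_prime_iff_eq hp.out Nat.prime_two).mp h2
  obtain ⟨ω, hω⟩ := exists_F4 hK
  obtain ⟨π, h3, h4, ⟨e⟩⟩ := exists_proj hK' hφ hφk
  have e : π.ker ≃* Multiplicative (ZMod 3) := e
  let h := isTw_st twist_E6 (charOK_zero K) φ
  have E := (h.ok per_E6).emb_gen
  have hf := h.fold.gen.range_subtype.le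
  have h5 := perfectG h hφ hω E hf
  have : Finite (twistedE6 K 2) := .of_surjective π h3
  have E' := emb_twistedE6 φ hφ hφk
  have hf' := (range_twistedE6 φ hφ hφk).le
  refine UB.hasSchurMultiplier (MB.ub_three (mb_of h5 (fun _ _ _ _ hτ _ => ker_eq_bot_odd h E hf tor_injective_E6 hτ) h3
    (c := e.symm (.ofAdd 1)) (le_antisymm (fun z hz => ?_) (Subgroup.zpowers_le.mpr (Subtype.prop _))) ?_
    (pbG _ hφ hω E' hf'))) ((ex_prod (A := Multiplicative (ZMod 3)) ⟨_, inferInstance, inferInstance, π,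
      ⟨h3, h4, h5 ▸ le_top⟩, ⟨e⟩⟩ (exG _ hφ hω E' hf') (m := 3) (n := 2) (by decide) (by decide) (by decide)).of_equiv
      (MulEquiv.prodMultiplicative _ _).symm)
  · have : ∀ a : Multiplicative (ZMod 3), ∃ k < 3, a = .ofAdd 1 ^ k := by decide
    obtain ⟨k, -, a⟩ := this (e ⟨z, hz⟩)
    rw [← e.eq_symm_apply, map_pow] at a
    exact (show z = _ ^ k from congrArg Subtype.val a) ▸ pow_mem (Subgroup.mem_zpowers _) k
  · rw [← Subgroup.coe_pow, ← map_pow, show (Multiplicative.ofAdd (1 : ZMod 3)) ^ 3 = 1 by decide, map_one]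
    rfl

end Cfsg.Agent.Mult.E62
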