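import Cfsg.Agent.Lib.Mult.E62.P2D

set_option autoImplicit false
set_option maxRecDepth 100000
set_option Elab.async false

namespace Cfsg.Agent.Mult.E62

open Cfsg.Agent.CG

theorem p2c0 : D2.chkHead = true := by decide +kernel
theorem p2c1 : D2.chkVars 0 372 = true := by decide +kernel
theorem p2c2 : D2.chkVars 372 112 = true := by decide +kernel
theorem p2c3 : D2.chkVars 484 73 = true := by decide +kernel
theorem p2c4 : D2.chkVars 557 48 = true := by decide +kernel
theorem p2c5 : D2.chkVars 605 71 = true := by decide +kernel
theorem p2c6 : D2.chkVars 676 66 = true := by decide +kernel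
theorem p2c7 : D2.chkVars 742 42 = true := by decide +kernel
theorem p2c8 : D2.chkVars 784 41 = true := by decide +kernel
theorem p2c9 : D2.chkVars 825 42 = true := by decide +kernel
theorem p2c10 : D2.chkVars 867 39 = true := by decide +kernel
theorem p2c11 : D2.chkVars 906 39 = true := by decide +kernel
theorem p2c12 : D2.chkVars 945 39 = true := by decide +kernel
theorem p2c13 : D2.chkVars 984 36 = true := by decide +kernel
theorem p2c14 : D2.chkVars 1020 36 = true := by decide +kernel
theorem p2c15 : D2.chkVars 1056 37 = true := by decide +kernel

end Cfsg.Agent.Mult.E62
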