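import Cfsg.Agent.Lib.Mult.E62.P2D

set_option autoImplicit false
set_option maxRecDepth 100000
set_option Elab.async false

namespace Cfsg.Agent.Mult.E62

open Cfsg.Agent.CG

theorem p2c16 : D2.chkVars 1093 36 = true := by decide +kernel
theorem p2c17 : D2.chkVars 1129 33 = true := by decide +kernel
theorem p2c18 : D2.chkVars 1162 32 = true := by decide +kernel
theorem p2c19 : D2.chkVars 1194 31 = true := by decide +kernel
theorem p2c20 : D2.chkVars 1225 26 = true := by decide +kernel
theorem p2c21 : D2.chkVars 1251 30 = true := by decide +kernel
theorem p2c22 : D2.chkVars 1281 29 = true := by decide +kernel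
theorem p2c23 : D2.chkVars 1310 28 = true := by decide +kernel
theorem p2c24 : D2.chkVars 1338 26 = true := by decide +kernel
theorem p2c25 : D2.chkVars 1364 116 = true := by decide +kernel
theorem p2c26 : D2.chkRhos 0 28 = true := by decide +kernel
theorem p2c27 : D2.chkRhos 28 6 = true := by decide +kernel
theorem p2c28 : D2.chkEnts 0 949 = true := by decide +kernel
theorem p2c29 : D2.chkEnts 949 409 = true := by decide +kernel
theorem p2c30 : D2.chkEnts 1358 11 = true := by decide +kernel

end Cfsg.Agent.Mult.E62
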