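import Cfsg.Agent.Lib.PcX.Col
import Cfsg.Agent.Lib.Mult.E62.Tab

/-! The central extension of the Sylow subgroup of `²E₆(2)`: consistency of the presentation, and the lifts of the
conjugation maps. -/

set_option autoImplicit false
set_option maxRecDepth 100000
set_option Elab.async false

namespace Cfsg.Agent.Mult.E62

open Cfsg.Agent.CG Cfsg.Agent.PcX

/-- The presentation of the unipotent group of `E₆(4)`. -/
noncomputable def R6 : Tb := ⟨7, 73, T6, 31, 3⟩

/-- The presentation of the cover. -/
noncomputable def RT : Tb := ⟨6, 39, TT, 40, 5⟩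

theorem fmt6 : R6.Fmt := Tb.fmt_of (by decide +kernel)
theorem fmtT : RT.Fmt := Tb.fmt_of (by decide +kernel)

theorem st1 : allRange RT.chkStage 1 2 = true := by decide +kernel
theorem st2 : allRange RT.chkStage 3 2 = true := by decide +kernel
theorem st3 : allRange RT.chkStage 5 4 = true := by decide +kernel
theorem st4 : allRange RT.chkStage 9 6 = true := by decide +kernel
theorem st5 : allRange RT.chkStage 15 24 = true := by decide +kernel

theorem exT : RT.Ex 0 := Tb.ex_zero fmtT fun k h1 h2 => by
  have h2 : k < 39 := h2
  have a1 := (allRange_iff _ _ _).mp st1 k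
  have a2 := (allRange_iff _ _ _).mp st2 k
  have a3 := (allRange_iff _ _ _).mp st3 k
  have a4 := (allRange_iff _ _ _).mp st4 k
  have a5 := (allRange_iff _ _ _).mp st5 k
  by_cases b1 : k < 3
  · exact a1 h1 b1
  by_cases b2 : k < 5
  · exact a2 (by omega) b2
  by_cases b3 : k < 9
  · exact a3 (by omega) b3
  by_cases b4 : k < 15
  · exact a4 (by omega) b4
  · exact a5 (by omega) h2

/-- The image of the letter `c` under the lift of the conjugation number `f`. -/
noncomputable def qt (f c : ℕ) : ℕ := look 4095 QT (Nat.mul 12 (Nat.add (Nat.mul f 39) c))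

/-- The letters moved by the conjugation number `f`. -/
noncomputable def sf (f c : ℕ) : Bool := bnot (Nat.beq (qt f c) 0)

/-- The check that the conjugation number `f` lifts. -/
noncomputable def chkQ (f : ℕ) : Bool := RT.wc 0 fun cf => allLt (chkRow cf RT (sf f) (qt f)) 39

theorem cq : allLt chkQ 6 = true := by decide +kernel

end Cfsg.Agent.Mult.E62
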