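import Cfsg.Agent.Lib.Mult.E62.Inv
import Cfsg.Agent.Lib.Mult.E62.P2

/-! The bound for the prime two, and perfectness. -/

set_option autoImplicit false
set_option maxRecDepth 100000

namespace Cfsg.Agent.Mult.E62

open Cfsg.Agent.CG Cfsg.Agent.PcX Cfsg.Lie Cfsg.Agent.Chev Cfsg.Agent.Chev.RSys Cfsg.Agent.Chev.PreRGD Subgroup

/-- The letters which are seen to be commutators at once. -/
def K0 (c : ℕ) : Prop := (∃ j < 39, ∃ i < j, 0 < i ∧ RT.wd j i = c * 2 ^ 6 + j) ∨
  ∃ d < 39, sf 4 d = true ∧ (qt 4 d = c * 2 ^ 6 + d ∨ qt 4 d = d * 2 ^ 6 + c)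

theorem ab_spec : ∀ c < 37, K0 c ∨ ∃ k < 5, ∃ d < 39, (sf k d = true ∧ qt k d = c) ∧ K0 d := by
  unfold K0
  decide +kernel

variable {K : Type*} [Field K] {ω : K} {G : Type*} [Group G] {x : ℕ → K → G} {φ : K →+* K} {σ : G →* G}
  (h : IsTw chevE6 twE6 x φ σ) (hφ : ∀ t, φ t = t ^ 2) (hω : F4 K ω) {Γ : Type*} [Group Γ] {f : Γ →* G}
  (E : h.fold.Emb f) [Finite K] (hf : f.range ≤ h.fold.gen)
include hφ hω E hf

theorem pbG [Finite Γ] [CharP K 2] : PB Γ 2 [2, 2] := by
  choose n _ hn using exists_n h hω E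
  let y : ℕ → Γ := fun c => if c < 37 then yG ω h E c else n (Fin.ofNat 4 (c - 36))
  have h1 : ∀ c < 37, y c = yG ω h E c := fun c hc => if_pos hc
  have h2 : ∀ u, (∀ c ∈ Nat.digits (2 ^ 6) u, c < 37) → evN y 6 u = evN (yG ω h E) 6 u := fun u hu =>
    ev_congr _ fun c hc => h1 c (hu c hc)
  have h3 : ∀ c < 37, evN y 6 c = yG ω h E c := fun c hc =>
    (evN_single (by decide) (h1 0 (by decide)) (by omega)).trans (h1 c hc)
  have h4 := relGD h hφ hω E
  have h5 : ∀ j < 37, RD.wd j 0 = j := by decide +kernel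
  have hR : D2.Rels y := by
    refine ⟨h1 0 (by decide), fun j i a b => ?_, fun k i a b => ?_⟩
    · have b : j < 37 := b
      have e := h2 (RD.wd j i) fun c hc => (fmtD.lt j i a b c hc).2
      change ev (evN y 6) (lhsL 2 j i) = ev (evN y 6) (rhsL (RD.wd j i) j i)
      rcases a.eq_or_lt with rfl | a
      · rw [lhsL, rhsL, show blt i i = false by rw [← Bool.not_eq_true, blt_iff]; exact lt_irrefl i]
        change ev _ [i, i] = ev _ [_]
        rw [ev_cons, ev_singleton, ev_singleton]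
        rcases Nat.eq_zero_or_pos i with rfl | c
        · rw [h5 0 b, evN_zero, mul_one]
        · rw [e, h3 i b]; exact h4.sq c b
      · rw [lhsL, rhsL, (blt_iff _ _).mpr a]
        change ev _ [j, i] = ev _ [i, _]
        rw [ev_cons, ev_singleton, ev_cons, ev_singleton]
        rcases Nat.eq_zero_or_pos i with rfl | c
        · rw [h5 j b, evN_zero, mul_one, one_mul]
        · rw [e, h3 i (a.trans b), h3 j b]; exact h4.comm (c.trans a) c a b
    · have a : k < 3 := a
      obtain ⟨c1, c2, c3⟩ := fusD h.chv.rel hω a b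
      change y (37 + k) * evN y 6 (D2.q1 (k * 37 + i)) = evN y 6 (D2.q2 (k * 37 + i)) * y (37 + k)
      rw [h2 _ c1, h2 _ c2, ← mul_inv_eq_iff_eq_mul]
      refine conj_yG h hφ hω E c1 c2 (by decide) (c3 _ ?_)
      have := hn (Fin.ofNat 4 (37 + k - 36))
      rwa [show ((Fin.ofNat 4 (37 + k - 36) : Fin 4) : ℕ) = k + 1 by rw [Fin.val_ofNat]; omega,
        ← show y (37 + k) = n _ from if_neg (by omega)] at this
  refine Dat.pb (D := D2) (e := 1) (n := 36) Nat.prime_two rfl rfl (by decide) hR ?_ (fun e => ?_) chkH chkV chkR chkE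
  · refine (Strict.le_card (S := (0 < ·)) (y := yG ω h E) (n := 37) (fun k a b c => strictG h hφ hω E k a b
      (C_le (fun c a b d => mem_C a b (by omega)) c)) 36 1 rfl fun c a _ => a).trans (card_le_of_le ?_)
    exact C_le fun c a _ b => subset_closure ⟨c, ⟨a, by omega⟩, h1 c b⟩
  · have h6 := h4.card_le fmtD (fmtD.cl 0) 36 1 rfl
    have h7 : Nat.card (h.chv.rel.pre.U.comap f) ≤ 2 ^ 36 := (card_le_of_le (by
      rw [← U_eq h hφ hω E (n := 37) le_rfl]; exact C_le fun c a _ b => mem_C a a b)).trans h6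
    rw [← (h.chv.rel.pre.U.comap f).card_mul_index] at e
    have h8 := Nat.le_of_dvd Nat.card_pos (((Nat.coprime_two_left.mpr
      (odd_index h hφ hω E hf)).pow_left 37).dvd_of_dvd_mul_right e)
    omega

theorem perfectG : commutator Γ = ⊤ := by
  let a : ℕ → Abelianization Γ := fun c => Abelianization.of (yG ω h E c)
  have a0 : a 0 = 1 := map_one _
  have h0 : ∀ c < 39, evN a 6 c = a c := fun c hc => evN_single (by decide) a0 (by omega)
  have h1 : ∀ k < 5, ∀ d < 39, sf k d = true → evN a 6 (qt k d) = a d := fun k hk d hd hs => by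
    obtain ⟨g, hg⟩ : ∃ g, Act ω x k (f g) := by
      rcases (Nat.le_of_lt_succ hk).eq_or_lt with rfl | e
      · exact (exists_h h hφ hω E 0).imp fun _ e => e.2.2
      · exact (exists_n h hω E ⟨k, e⟩).imp fun _ e => e.2
    have := congrArg Abelianization.of (fusG h hφ hω E (by omega) hd hs hg).2
    rwa [map_evN_of (y' := a) _ fun _ _ => rfl, map_mul, map_mul, map_inv, mul_inv_cancel_comm] at this
  have h2 : ∀ c < 39, K0 c → a c = 1 := by
    rintro c hc (⟨j, b1, i, b2, b3, b4⟩ | ⟨d, b1, b2, b3⟩)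
    · have := ((relG h hφ hω E).map fmtT (fmtT.cl 0) Abelianization.of (y' := a) fun _ _ _ => rfl).comm
        (b3.trans b2) b3 b2 b1
      rw [b4, mul_comm, mul_right_inj] at this
      change _ = evN a 6 _ at this
      rwa [evN_cons (by decide) a0 (by omega), h0 c hc, left_eq_mul] at this
    · have := h1 4 (by decide) d b1 b2
      rcases b3 with e | e <;> rw [e, evN_cons (by decide) a0 (by omega), h0 _ (by omega)] at this
      exacts [mul_eq_left.mp this, mul_eq_right.mp this]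
  refine SBN.eq_top_of_normal (E.sbn_full h.hrep_E6 hf) ((U_eq h hφ hω E (n := 37) le_rfl).ge.trans
    (C_le fun c _ _ hc => ?_))
  rw [← Abelianization.ker_of]
  rcases ab_spec c hc with e | ⟨k, b1, d, b2, ⟨b3, b4⟩, b5⟩
  · exact h2 c (by omega) e
  · exact (h0 c (by omega)).symm.trans ((b4 ▸ h1 k b1 d b2 b3).trans (h2 d b2 b5))

end Cfsg.Agent.Mult.E62
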