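import Cfsg.Agent.Lib.Mult.E62.Z

/-! The Sylow subgroup of `²E₆(2)` and the conjugation maps. -/

set_option autoImplicit false
set_option maxRecDepth 100000

namespace Cfsg.Agent.Mult.E62

open Cfsg.Agent.PcX Cfsg.Lie Cfsg.Agent.Chev Cfsg.Agent.Chev.RSys Cfsg.Agent.Chev.PreRGD Subgroup

/-- The level of a generator. -/
def lvc : ℕ → ℕ := byteAt 0x181817161514141312121110100f0e0d0d0c0b0b0a0a0909080707060505040403020101000000

/-- The exponent of a generator. -/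
def ey : ℕ → ℕ := byteAt 0x1000001000001000000010000010001000100000100000100010000000100010000

/-- The root of a generator. -/
def rp (c : ℕ) : ℕ := levE6.rep (lvc c)

theorem sb_spec : ∀ c < 37, 0 < c → lvc c < 24 ∧ 36 ≤ rp c ∧ rp c < 72 ∧ 36 ≤ twE6.π (rp c) ∧ twE6.π (rp c) < 72 ∧
    if twE6.π (rp c) = rp c then ey c = 0 ∧ sb c = xw (rp c) 0 else
      sb c = xw (twE6.π (rp c)) (ey c * 2) * 2 ^ (7 * 1) + xw (rp c) (ey c) ∧ xw (rp c) (ey c) / 2 ^ (7 * 1) = 0 := by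
  decide +kernel

theorem sb_zero : ∀ c < 39, ¬ (0 < c ∧ c < 37) → sb c = 0 := by decide +kernel

variable {K : Type*} [Field K] {ω : K} {G : Type*} [Group G] {x : ℕ → K → G} {φ : K →+* K} {σ : G →* G}
  (h : IsTw chevE6 twE6 x φ σ) (hφ : ∀ t, φ t = t ^ 2) (hω : F4 K ω) {Γ : Type*} [Group Γ] {f : Γ →* G}
  (E : h.fold.Emb f)

variable (ω) in
/-- The generators in the twisted group. -/
noncomputable def yG (c : ℕ) : Γ :=
  if 0 < c ∧ c < 37 then h.Y E (rp c) (kr twE6 2 (rp c)) (ω ^ ey c) else 1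

theorem yG_of {c : ℕ} (h1 : 0 < c) (h2 : c < 37) : yG ω h E c = h.Y E (rp c) (kr twE6 2 (rp c)) (ω ^ ey c) :=
  if_pos ⟨h1, h2⟩

theorem yG_ge {c : ℕ} (h1 : 37 ≤ c) : yG ω h E c = 1 := if_neg (by omega)

include hφ hω

theorem φ_two (t : K) : φ^[2] t = t := by
  change φ (φ t) = t
  rw [hφ, hφ]
  rcases hω.all t with rfl | rfl | rfl | rfl
  · simp
  · simp
  · linear_combination t * hω.cube
  · linear_combination (4 + ω) * hω.cube + (2 + 3 * ω ^ 2 + 2 * ω) * hω.two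

theorem mem_Fx_ey {c : ℕ} (h1 : 0 < c) (h2 : c < 37) : ω ^ ey c ∈ Fx twE6 2 φ (rp c) := by
  have := (sb_spec c h2 h1).2.2.2.2.2
  rw [mem_Fx]
  split_ifs at this with e
  · rw [this.1, pow_zero, kr_fix e]; exact map_one φ
  · rw [kr_ne e]; exact φ_two hφ hω _

theorem f_yG' {c : ℕ} (h1 : 0 < c) (h2 : c < 37) :
    f (yG ω h E c) = dl σ (kr twE6 2 (rp c)) (x (rp c) (ω ^ ey c)) := by
  rw [yG_of h E h1 h2]
  exact h.map_Y' per_E6 E ⟨rp c, (sb_spec c h2 h1).2.2.1⟩ (mem_Fx_ey hφ hω h1 h2)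

theorem f_yG {c : ℕ} (hc : c < 39) : f (yG ω h E c) = yv ω x c := by
  by_cases h0 : 0 < c ∧ c < 37
  swap
  · rw [yG, if_neg h0, map_one, yv, sb_zero c hc h0, evN_zero]
  obtain ⟨-, a1, a2, a3, a4, a5⟩ := sb_spec c h0.2 h0.1
  rw [f_yG' h hφ hω E h0.1 h0.2, yv]
  split_ifs at a5 with e
  · rw [kr_fix e, dl_one, a5.1, a5.2, evN_xw h.chv.rel hω a1 a2]
  · rw [kr_ne e, dl_two, a5.1, evN_append (by decide) z_zero _ _ _ a5.2, evN_xw h.chv.rel hω a1 a2,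
      evN_xw h.chv.rel hω a3 a4, h.σ_x ⟨rp c, a2⟩, h.τ_eq per_E6, hφ, hω.sign (by unfold TwData.ε; split_ifs <;> simp),
      one_mul, pow_mul]
    rfl

theorem relG : Rel RT (0 < ·) (yG ω h E) :=
  (relT h.chv.rel hω).of_map fmtT (fmtT.cl 0) f E.inj fun _ _ hc => f_yG h hφ hω E hc

theorem relGD : Rel RD (0 < ·) (yG ω h E) :=
  (relD h.chv.rel hω).of_map fmtD (fmtD.cl 0) f E.inj fun _ _ hc => f_yG h hφ hω E (lt_trans hc (by decide))

theorem conj_yG {k : ℕ} {g : Γ} {u v : ℕ} (hu : ∀ c ∈ Nat.digits (2 ^ 6) u, c < k) (hv : ∀ c ∈ Nat.digits (2 ^ 6) v, c < k)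
    (hk : k ≤ 39) (e : f g * evN (yv ω x) 6 u * (f g)⁻¹ = evN (yv ω x) 6 v) :
    g * evN (yG ω h E) 6 u * g⁻¹ = evN (yG ω h E) 6 v := E.inj <| by
  rw [map_mul, map_mul, map_inv, map_evN_of f fun c hc => f_yG h hφ hω E ((hu c hc).trans_le hk),
    map_evN_of f fun c hc => f_yG h hφ hω E ((hv c hc).trans_le hk), e]

theorem yG_mem {c : ℕ} (h1 : 0 < c) (h2 : c < 37) {T : Set (Fin chevE6.nroots)} (hT : h.fold.St T)
    (hr : ⟨rp c, (sb_spec c h2 h1).2.2.1⟩ ∈ T) : f (yG ω h E c) ∈ h.chv.rel.pre.US T := by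
  rw [f_yG' h hφ hω E h1 h2]
  exact dl_mem' (fun a ha => Fold.σ_US (F := h.fold) hT ha) _ (x_mem_USub hr _)

variable [Finite K]

theorem yG_F {c : ℕ} (h1 : 0 < c) (h2 : c < 37) : yG ω h E c ∈ (h.filt levOK_E6 E).F (lvc c) ∧
    (h.filt levOK_E6 E).c (lvc c) (yG ω h E c) = ω ^ ey c := by
  rw [yG_of h E h1 h2]
  exact h.filt_Y' per_E6 E levOK_E6 (sb_spec c h2 h1).1 (mem_Fx_ey hφ hω h1 h2)

theorem strictG : Strict (0 < ·) (yG ω h E) 37 39 := fun k hk h0 hm => by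
  set S := h.filt levOK_E6 E
  have hi : lvc k < S.m := (sb_spec k hk h0).1
  have h2 : ∀ a : K, a + a = 0 := fun a => by linear_combination a * hω.two
  let W : Subgroup Γ :=
    { carrier := {g | g ∈ S.F (lvc k) ∧ (S.c (lvc k) g = 0 ∨ (ey k = 0 ∧ S.c (lvc k) g = ω))}
      one_mem' := ⟨one_mem _, Or.inl (Filt.c_one hi)⟩
      mul_mem' := by
        rintro a b ⟨ha, ha'⟩ ⟨hb, hb'⟩
        refine ⟨mul_mem ha hb, ?_⟩
        rw [S.c_mul _ hi a ha b hb]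
        rcases ha' with e | ⟨e0, e⟩ <;> rcases hb' with e' | ⟨e0, e'⟩ <;> simp [*]
      inv_mem' := by
        rintro a ⟨ha, ha'⟩
        exact ⟨inv_mem ha, by rwa [Filt.c_inv hi ha, hω.neg]⟩ }
  have h3 : ∀ k < 37, ∀ c < 37, k = 0 ∨ c ≤ k ∨ lvc k < lvc c ∨ (lvc c = lvc k ∧ ey k = 0 ∧ ey c = 1) := by
    decide +kernel
  have h4 : yG ω h E k ∈ W := C_le (fun c a b _ => by
    by_cases hc : c < 37
    · obtain ⟨e1, e2⟩ := yG_F h hφ hω E a hc
      rcases ((h3 k hk c hc).resolve_left (by omega)).resolve_left (by omega) with e | ⟨e3, e4, e5⟩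
      · have := S.F_mono e e1
        exact ⟨S.anti _ this, Or.inl ((S.c_eq_zero _ hi _ (S.anti _ this)).mpr this)⟩
      · rw [e3] at e1 e2
        exact ⟨e1, Or.inr ⟨e4, by rw [e2, e5, pow_one]⟩⟩
    · rw [yG_ge h E (by omega)]; exact one_mem _) hm
  have h5 := h4.2
  rw [(yG_F h hφ hω E h0 hk).2] at h5
  rcases h5 with e | ⟨e, e'⟩
  · exact pow_ne_zero _ hω.ne_zero e
  · rw [e, pow_zero] at e'; exact hω.ne_one e'.symm

theorem exists_level {i : ℕ} (hi : i < 24) {g : Γ} (hg : g ∈ (h.filt levOK_E6 E).F i) :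
    ∃ b ∈ (h.filt levOK_E6 E).F i, b ∈ C (fun c => 0 < c ∧ lvc c = i) (yG ω h E) 37 0 ∧
      (h.filt levOK_E6 E).c i b = (h.filt levOK_E6 E).c i g := by
  obtain ⟨c, c1, c2, c3, c4, c5⟩ : ∃ c < 37, 0 < c ∧ lvc c = i ∧ ey c = 0 ∧
      (twE6.π (levE6.rep i) = levE6.rep i ∨ (c + 1 < 37 ∧ lvc (c + 1) = i ∧ ey (c + 1) = 1)) := by
    clear hg; revert i; decide +kernel
  have a1 := yG_F h hφ hω E c2 c1
  rw [c3, c4, pow_zero] at a1
  have a2 : yG ω h E c ∈ C (fun c => 0 < c ∧ lvc c = i) (yG ω h E) 37 0 := mem_C ⟨c2, c3⟩ (Nat.zero_le _) c1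
  have a3 := mem_Fx.mp (h.c_mem per_E6 E levOK_E6 hi hg)
  have a4 : (h.filt levOK_E6 E).c i g = ω ∨ (h.filt levOK_E6 E).c i g = 1 + ω →
      yG ω h E (c + 1) ∈ C (fun c => 0 < c ∧ lvc c = i) (yG ω h E) 37 0 ∧
      yG ω h E (c + 1) ∈ (h.filt levOK_E6 E).F i ∧ (h.filt levOK_E6 E).c i (yG ω h E (c + 1)) = ω := fun e => by
    rcases c5 with c5 | ⟨c5, c6, c7⟩
    · rw [kr_fix c5, Function.iterate_one, hφ] at a3
      rcases e with e | e <;> rw [e] at a3 <;> refine absurd ?_ (one_ne_zero' K)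
      · linear_combination a3 - hω.sq
      · linear_combination a3 - hω.sq - ω * hω.two
    · have := yG_F h hφ hω E (Nat.succ_pos c) c5
      rw [c6, c7, pow_one] at this
      exact ⟨mem_C ⟨Nat.succ_pos c, c6⟩ (Nat.zero_le _) c5, this⟩
  rcases hω.all ((h.filt levOK_E6 E).c i g) with e | e | e | e
  · exact ⟨1, one_mem _, one_mem _, (Filt.c_one hi).trans e.symm⟩
  · exact ⟨_, a1.1, a2, a1.2.trans e.symm⟩
  · obtain ⟨b1, b2, b3⟩ := a4 (Or.inl e)
    exact ⟨_, b2, b1, b3.trans e.symm⟩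
  · obtain ⟨b1, b2, b3⟩ := a4 (Or.inr e)
    exact ⟨_, mul_mem a1.1 b2, mul_mem a2 b1, by rw [Filt.c_mul _ _ hi _ a1.1 _ b2, a1.2, b3, e]⟩

theorem U_eq {n : ℕ} (hn : 37 ≤ n) : C (0 < ·) (yG ω h E) n 0 = h.chv.rel.pre.U.comap f := by
  rw [← h.filt_F_zero levOK_E6 E]
  refine le_antisymm (C_le fun c a _ _ => ?_) (Filt.le_of_rep fun i _ hi g hg => ?_)
  · by_cases hc : c < 37
    · exact Filt.le_zero _ _ (yG_F h hφ hω E a hc).1
    · rw [yG_ge h E (by omega)]; exact one_mem _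
  · obtain ⟨b, b1, b2, b3⟩ := exists_level h hφ hω E hi hg
    exact ⟨b, b1, C_le (fun c a b d => mem_C a.1 b (by omega)) b2, b3⟩

omit hφ hω [Finite K] in
theorem inSub_iff (a : Fin 4) {r : Fin chevE6.nroots} (hr : (rs chevE6).IsPos r) :
    (rs chevE6).InSub (h.fold.orb (repE6 a)) r ↔ levE6.lv r = levE6.lv (chevE6.simple (repE6 a)) := by
  have h1 : ∀ a, ∀ r : Fin chevE6.nroots, chevE6.nroots ≤ 2 * r → ((∀ j : Fin chevE6.rank,
      ¬ (j = repE6 a ∨ (j : ℕ) = twE6.ν (repE6 a)) → rcN chevE6 r j = 0) ↔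
        levE6.lv r = levE6.lv (chevE6.simple (repE6 a))) := by decide +kernel
  rw [← h1 a r ((rs_isPos_iff_le r).mp hr)]
  refine forall_congr' fun j => ?_
  rw [Fold.mem_orb_two (Fin.ext (by simp only [IsTw.fold_π, Twist.νp_val]; revert a; decide +kernel)), Fin.ext_iff (b := h.fold.π _)]
  rfl

theorem mem_C_of_UJ (a : Fin 4) {g : Γ} (hg : f g ∈ h.chv.rel.pre.UJ (h.fold.orb (repE6 a))) :
    g ∈ C (sf a · = true) (yG ω h E) 39 0 := by
  have hJ := Fold.stI_orb (F := h.fold) (repE6 a)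
  have h1 : ∀ a : Fin 4, ∀ c < 37, 0 < c → levE6.lv (rp c) = lvc c ∧
      (lvc c ≠ levE6.lv (chevE6.simple (repE6 a)) → sf a c = true) := by decide +kernel
  have hp : ∀ c (h1 : 0 < c) (h2 : c < 37), (rs chevE6).IsPos ⟨rp c, (sb_spec c h2 h1).2.2.1⟩ := fun c h1 h2 =>
    (rs_isPos_iff_le _).mpr (Nat.mul_le_mul_left 2 (sb_spec c h2 h1).2.1)
  suffices ∀ m i, i + m = 24 → ∀ g ∈ (h.filt levOK_E6 E).F i, f g ∈ h.chv.rel.pre.UJ (h.fold.orb (repE6 a)) →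
      g ∈ C (sf a · = true) (yG ω h E) 39 0 from
    this 24 0 rfl g (by rw [h.filt_F_zero]; exact UJ_le_U _ _ hg) hg
  intro m
  induction m with
  | zero =>
    rintro _ rfl g hg -
    rw [show (h.filt levOK_E6 E).F 24 = ⊥ from (h.filt levOK_E6 E).top, mem_bot] at hg
    exact hg ▸ one_mem _
  | succ m ih =>
    intro i hi g hg hg'
    have hi' : i < 24 := by omega
    obtain ⟨b, b1, b2, b3⟩ := exists_level h hφ hω E hi' hg
    have b4 := Filt.inv_mul_mem hi' b1 hg b3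
    by_cases e : i = levE6.lv (chevE6.simple (repE6 a))
    · have b5 : b ∈ (h.chv.rel.pre.UL (h.fold.orb (repE6 a))).comap f := C_le (fun c (a1 : 0 < c ∧ lvc c = i) _ a2 =>
        mem_comap.mpr <| yG_mem h hφ hω E a1.1 a2 (Fold.st_pos.inter hJ.st) ⟨hp c a1.1 a2, (inSub_iff h a (hp c a1.1 a2)).mpr
          ((h1 a c a2 a1.1).1.trans (a1.2.trans e))⟩) b2
      have b6 : f (b⁻¹ * g) ∈ h.chv.rel.pre.UJ (h.fold.orb (repE6 a)) :=
        USub_mono (T := {r | (rs chevE6).IsPos r ∧ ¬ (rs chevE6).InSub (h.fold.orb (repE6 a)) r})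
          (fun r hr => And.intro hr.1 fun e' => by
          have := (inSub_iff h a hr.1).mp e'
          have := hr.2
          omega) ((h.mem_filt_F _ E).mp b4)
      have b7 : b = 1 := E.inj ((E.nd.eq_one_of_mem_UJ_UL (by simpa using mul_mem hg' (inv_mem b6)) b5).trans
        (map_one f).symm)
      exact ih (i + 1) (by omega) g (by simpa [b7] using b4) hg'
    · have b5 : b ∈ C (sf a · = true) (yG ω h E) 39 0 ⊓ (h.chv.rel.pre.UJ (h.fold.orb (repE6 a))).comap f :=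
        C_le (fun c (a1 : 0 < c ∧ lvc c = i) _ a2 => mem_inf.mpr ⟨mem_C ((h1 a c a2 a1.1).2 (a1.2 ▸ e)) (Nat.zero_le _) (by omega),
          yG_mem h hφ hω E a1.1 a2 (Fold.st_pos.inter hJ.st.compl) ⟨hp c a1.1 a2, fun e' => e
            (a1.2.symm.trans ((h1 a c a2 a1.1).1.symm.trans ((inSub_iff h a (hp c a1.1 a2)).mp e')))⟩⟩) b2
      rw [mem_inf, mem_comap] at b5
      simpa using mul_mem b5.1 (ih (i + 1) (by omega) _ b4 (by simpa using mul_mem (inv_mem b5.2) hg'))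

omit hφ hω in
/-- The words of the fundamental reflections. -/
def nl : Fin 4 → List (Fin chevE6.rank) :=
  ![[⟨0, by decide⟩, ⟨5, by decide⟩], [⟨2, by decide⟩, ⟨4, by decide⟩], [⟨1, by decide⟩], [⟨3, by decide⟩]]

include E in
omit hφ [Finite K] in
theorem exists_n (a : Fin 4) : ∃ n : Γ, h.chv.rel.pre.Over (f n) (h.fold.s (repE6 a)) ∧ Act ω x a (f n) := by
  have h1 := h.isSL2 E (h.orbOK per_E6 _) (h.fix_iff' per_E6 ((rs chevE6).simple (repE6 a))) repE6 (a := a) rfl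
  have h0 := mem_comap.mp (h1.n_mem 1 one_ne_zero)
  rw [map_mul, map_inv] at h0
  refine ⟨_, (E.over_n _).of_inv_mul_mem h0, fun r hr u => ?_⟩
  have h2 : (kr twE6 2 (chevE6.simple (repE6 a)) = 1 ∧ nl a = [repE6 a]) ∨
      (kr twE6 2 (chevE6.simple (repE6 a)) = 2 ∧ ∃ j, nl a = [repE6 a, j] ∧ twE6.ν (repE6 a) = j) := by
    clear h0 h1; revert a; decide +kernel
  have h3 : dl σ (kr twE6 2 (chevE6.simple (repE6 a))) (nElt chevE6 x ((rs chevE6).simple (repE6 a) : Fin _) 1) =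
      h.chv.rel.pre.nw (nl a) := by
    rcases h2 with ⟨e1, e2⟩ | ⟨e1, j, e2, e3⟩ <;> rw [e1, e2]
    · simp [R7.pre_n]
    · rw [dl_two, h.σ_nElt, map_one, mul_one, hω.sign (by unfold TwData.ε; split_ifs <;> simp), h.tw.ρ_simple,
        show h.tw.νp (repE6 a) = j from Fin.ext e3]
      simp [R7.pre_n]
  have h4 : ∀ a : Fin 4, ∀ r < 72, wordN chevE6 ((nl a).map Fin.val) r = ρt a r ∧ et a r = 0 := by decide +kernel
  obtain ⟨c, hc, h5, -⟩ := h.chv.rel.r7.nw_conj h.chv.rel (nl a) ⟨r, hr⟩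
  rw [h.map_sl2n_Y E (h.orbOK per_E6 _) (h.fix_iff' per_E6 _), map_one]
  refine ((congrArg (fun g => g * x r u * g⁻¹) h3).trans (h5 u)).trans ?_
  rw [wordW_val, (h4 a r hr).1, (h4 a r hr).2]
  rcases hc with rfl | rfl <;> simp [hω.neg]

theorem exists_h (a : Fin 4) : ∃ g ∈ (E.sbn repE6).T a, (E.sbn repE6).T a ≤ zpowers g ∧
    if (a : ℕ) < 2 then Act ω x (4 + a) (f g) else g = 1 := by
  have h1 := h.isSL2 E (h.orbOK per_E6 _) (h.fix_iff' per_E6 ((rs chevE6).simple (repE6 a))) repE6 (a := a) rfl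
  rw [h1.T_eq]
  have h2 : ∀ a : Fin 4, kr twE6 2 (chevE6.simple (repE6 a)) = if (a : ℕ) < 2 then 2 else 1 := by decide +kernel
  split_ifs with ha
  · have h3 : kr twE6 2 ((rs chevE6).simple (repE6 a) : Fin _) = 2 := (h2 a).trans (if_pos ha)
    let v : (Fx twE6 2 φ ((rs chevE6).simple (repE6 a) : Fin _))ˣ :=
      Units.mk0 ⟨ω, mem_Fx.mpr (by rw [h3]; exact φ_two hφ hω ω)⟩ fun e => hω.ne_zero (congrArg Subtype.val e)
    refine ⟨h1.toSL2D.hHom v, ⟨v, rfl⟩, ?_, fun r hr u => ?_⟩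
    · rintro _ ⟨w, rfl⟩
      rw [← MonoidHom.map_zpowers]
      refine mem_map_of_mem _ ?_
      rcases hω.all w.1.1 with e | e | e | e
      · exact absurd (Subtype.ext e) w.ne_zero
      · exact (show w = 1 from Units.ext (Subtype.ext e)) ▸ one_mem _
      · exact (show w = v from Units.ext (Subtype.ext e)) ▸ mem_zpowers _
      · exact (show w = v * v from Units.ext (Subtype.ext (e.trans hω.sq.symm))) ▸ mul_mem (mem_zpowers _) (mem_zpowers _)
    · let l : Fin 4 → List ℤ := ![[1], [0, 0, 1], [], []]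
      have h4 : ∀ a : Fin 4, (a : ℕ) < 2 → (∀ i : Fin chevE6.rank, (l a).getD i 0 = if i = repE6 a then 1 else 0) ∧
          ∀ r < 72, evQ 2 (exN chevE6 twE6 (l a) 2 r) % 3 = et (4 + a) r := by decide +kernel
      have h5 : ∀ t : Kˣ, Pi.mulSingle (repE6 a) t = cot chevE6 (l a) t := fun t => funext fun i => by
        rw [cot, (h4 a ha).1, Pi.mulSingle_apply]; split_ifs <;> simp
      rw [SL2D.hHom_apply, h.map_sl2h_Y' E (h.orbOK per_E6 _) (h.fix_iff' per_E6 _), h3, h5]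
      refine (h.chv.rel.actsBy_torus _ _ ⟨r, hr⟩ u).trans ?_
      have h6 : ∀ a : Fin 4, (a : ℕ) < 2 → ∀ r < 72, ρt (4 + a) r = r := by decide +kernel
      rw [h.chi_dl_cot hφ, zpow_eq_zpow_emod _ (n := 3) (Units.ext hω.cube), (h4 a ha).2 r hr, h6 a ha r hr]
      rw [zpow_natCast, Units.val_pow_eq_pow_val]
      rfl
  · refine ⟨1, one_mem _, ?_, rfl⟩
    rintro _ ⟨w, rfl⟩
    have h3 := mem_Fx.mp w.1.2
    rw [show kr twE6 2 ((rs chevE6).simple (repE6 a) : Fin _) = 1 from (h2 a).trans (if_neg ha), Function.iterate_one,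
      hφ, sq, mul_eq_left₀ fun e => w.ne_zero (Subtype.ext e)] at h3
    rw [show w = 1 from Units.ext (Subtype.ext h3), map_one]
    exact one_mem _

end Cfsg.Agent.Mult.E62
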